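import Cfsg.Agent.MaxSub.TensorPow.SelBase
import Cfsg.Agent.MaxSub.TensorMax.SympAlg

/-!
`U ⊗ W` in characteristic two, `U` symplectic of dimension at least six and written as `Fin m → W`:
groups of isometries containing the transvections of the first factor.
-/

set_option autoImplicit false
set_option linter.unusedSectionVars false
set_option linter.unusedSimpArgs false

namespace Cfsg.Agent.MaxSub.TensorPowSp.Even

open Module Matrix Cfsg.Agent.MaxSub.TensorPow
open Cfsg.Agent.MaxSub.TensorMax (Alt)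
open Cfsg.Agent.MaxSub.ExtField (Mem inv_apply_self self_inv_apply mem_zero)

universe u w

variable {F : Type u} [Field F] {m : ℕ} {W : Type w} [AddCommGroup W] [Module F W]

/-- A pair of forms on the two factors. -/
structure Forms (F : Type u) [Field F] (m : ℕ) (W : Type w) [AddCommGroup W] [Module F W] where
  /-- the form on the first factor -/
  g : (Fin m → F) →ₗ[F] (Fin m → F) →ₗ[F] F
  /-- the form on the second factor -/
  b : W →ₗ[F] W →ₗ[F] F
  h2 : (2 : F) = 0
  alt : Alt g
  b_nd : ∀ w, (∀ w', b w w' = 0) → w = 0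
  b_symm : ∀ w w', b w w' = b w' w
  dim : 6 ≤ m

variable (P : Forms F m W)

/-- The functional of a vector of the first factor. -/
def eta (u : Fin m → F) : Fin m → F := fun i => P.g (Pi.single i 1) u

/-- The contraction with a vector of the first factor. -/
abbrev evs (u : Fin m → F) : (Fin m → W) →ₗ[F] W := ev (eta P u)

/-- The product form. -/
def bV (X Y : Fin m → W) : F :=
  ∑ i, ∑ j, P.g (Pi.single i 1) (Pi.single j 1) * P.b (X i) (Y j)

/-- Two independent orthogonal vectors. -/
def Orth (x y : Fin m → F) : Prop := x ≠ 0 ∧ y ∉ F ∙ x ∧ P.g x y = 0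

/-- The displacement of an element of the pair `x, y`. -/
def dq (N N' : W →ₗ[F] W) (x y : Fin m → F) : (Fin m → W) →ₗ[F] (Fin m → W) :=
  root x (eta P y) N + root y (eta P x) N'

/-- Isometries containing the transvections of the first factor. -/
structure Grp (G : Subgroup ((Fin m → W) ≃ₗ[F] (Fin m → W))) : Prop where
  iso : ∀ h ∈ G, ∀ X Y, bV P (h X) (h Y) = bV P X Y
  trv : ∀ (u : Fin m → F) (c : F), Mem G (c • root u (eta P u) (LinearMap.id : W →ₗ[F] W))

/-- All parameters of the pairs of orthogonal lines are scalars. -/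
def NoPar (G : Subgroup ((Fin m → W) ≃ₗ[F] (Fin m → W))) : Prop :=
  ∀ x y N N', Orth P x y → Mem G (dq P N N' x y) → ∃ c : F, N = c • LinearMap.id

namespace Forms

variable {P}

lemma neg_eq {V : Type*} [AddCommGroup V] [Module F V] (P : Forms F m W) (X : V) : -X = X := by
  rw [neg_eq_iff_add_eq_zero, ← two_smul F X, P.h2, zero_smul]

lemma add_self {V : Type*} [AddCommGroup V] [Module F V] (P : Forms F m W) (X : V) : X + X = 0 := by
  rw [← two_smul F X, P.h2, zero_smul]

lemma g_symm (u v : Fin m → F) : P.g u v = P.g v u := by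
  rw [P.alt.skew u v, P.neg_eq]

lemma eta_dot (u v : Fin m → F) : eta P u ⬝ᵥ v = P.g v u := by
  classical
  conv_rhs => rw [pi_eq_sum_univ' v]
  simp only [map_sum, map_smul, LinearMap.sum_apply, LinearMap.smul_apply, smul_eq_mul, eta,
    dotProduct]
  exact Finset.sum_congr rfl fun i _ => mul_comm _ _

lemma evs_ins (u v : Fin m → F) (w : W) : evs P u (ins v w) = P.g v u • w := by
  rw [evs, ev_ins, eta_dot]

lemma evs_add (u v : Fin m → F) (X : Fin m → W) : evs P (u + v) X = evs P u X + evs P v X := by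
  simp [evs, eta, add_smul, Finset.sum_add_distrib]

lemma evs_smul (c : F) (u : Fin m → F) (X : Fin m → W) : evs P (c • u) X = c • evs P u X := by
  simp [evs, eta, mul_smul, Finset.smul_sum]

lemma ev_eta_ins (u v : Fin m → F) (w : W) : ev (eta P u) (ins v w) = P.g v u • w := P.evs_ins u v w

lemma evs_zero (X : Fin m → W) : evs P 0 X = 0 := by simp [evs, eta]

lemma bV_ins_right (X : Fin m → W) (u : Fin m → F) (w : W) :
    bV P X (ins u w) = P.b (evs P u X) w := by
  simp only [bV, evs, ev_apply, map_sum, LinearMap.sum_apply, map_smul, LinearMap.smul_apply,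
    ins_apply, smul_eq_mul]
  refine Finset.sum_congr rfl fun i _ => ?_
  conv_rhs => rw [eta, pi_eq_sum_univ' u]
  simp only [map_sum, map_smul, smul_eq_mul, Finset.sum_mul]
  exact Finset.sum_congr rfl fun j _ => by ring

lemma bV_ins_ins (u u' : Fin m → F) (w w' : W) :
    bV P (ins u w) (ins u' w') = P.g u u' * P.b w w' := by
  rw [bV_ins_right, evs_ins, map_smul, LinearMap.smul_apply, smul_eq_mul]

lemma bV_symm (X Y : Fin m → W) : bV P X Y = bV P Y X := by
  rw [bV, bV, Finset.sum_comm]
  refine Finset.sum_congr rfl fun i _ => Finset.sum_congr rfl fun j _ => ?_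
  rw [P.g_symm, P.b_symm]

lemma bV_ins_left (u : Fin m → F) (w : W) (X : Fin m → W) :
    bV P (ins u w) X = P.b w (evs P u X) := by
  rw [bV_symm, bV_ins_right, P.b_symm]

lemma bV_add_left (X X' Y : Fin m → W) : bV P (X + X') Y = bV P X Y + bV P X' Y := by
  simp only [bV, Pi.add_apply, map_add, LinearMap.add_apply, mul_add, Finset.sum_add_distrib]

lemma bV_add_right (X Y Y' : Fin m → W) : bV P X (Y + Y') = bV P X Y + bV P X Y' := by
  simp only [bV, Pi.add_apply, map_add, mul_add, Finset.sum_add_distrib]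

lemma eq_zero_of_evs (X : Fin m → W) (h : ∀ u, evs P u X = 0) : X = 0 := by
  classical
  funext i
  obtain ⟨u, hu⟩ := P.alt.exists_dual (dotProductBilin F F (Pi.single i (1 : F)))
  have h1 : eta P u = Pi.single i 1 := funext fun j => by
    show P.g (Pi.single j 1) u = _
    rw [P.g_symm, hu]
    simp [Pi.single_apply, eq_comm]
  have h2 := h u
  rw [evs, h1] at h2
  simpa [Pi.single_apply] using h2

lemma ext_ins {M : Type*} [AddCommMonoid M] [Module F M] {f g : (Fin m → W) →ₗ[F] M}
    (h : ∀ (u : Fin m → F) (w : W), f (ins u w) = g (ins u w)) (X : Fin m → W) : f X = g X := by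
  rw [eq_sum_ins (F := F) X, map_sum, map_sum]
  exact Finset.sum_congr rfl fun i _ => h _ _

lemma root_mul (x y x' y' : Fin m → F) (N M : W →ₗ[F] W) (X : Fin m → W) :
    root x (eta P y) N (root x' (eta P y') M X) = P.g x' y • root x (eta P y') (N ∘ₗ M) X := by
  rw [root_root, eta_dot]

lemma exists_dual_vec {v : Fin m → F} (hv : v ≠ 0) : ∃ y, P.g y v = 1 := by
  obtain ⟨φ, hφ⟩ := exists_dot_one hv
  obtain ⟨c, hc⟩ := P.alt.exists_dual (dotProductBilin F F φ)
  exact ⟨c, by rw [hc]; exact hφ⟩

lemma finrank_span_pair (P : Forms F m W) (x y : Fin m → F) :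
    finrank F (Submodule.span F ({x, y} : Set (Fin m → F))) ≤ 2 := by
  classical
  have h5 := finrank_span_finset_le_card (R := F) ({x, y} : Finset (Fin m → F))
  rw [Finset.coe_pair] at h5
  exact h5.trans Finset.card_le_two

/-- A vector orthogonal to few vectors outside a small subspace. -/
lemma exists_perp_avoid {k : ℕ} (c : Fin k → (Fin m → F)) (A : Submodule F (Fin m → F))
    (h : k + finrank F A < m) : ∃ w, w ∉ A ∧ ∀ i, P.g w (c i) = 0 := by
  let φ : (Fin m → F) →ₗ[F] (Fin k → F) := LinearMap.pi fun i => P.g.flip (c i)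
  by_contra hc
  push Not at hc
  have h1 : LinearMap.ker φ ≤ A := fun x hx => by
    by_contra hxA
    obtain ⟨i, hi⟩ := hc x hxA
    exact hi (congrFun (LinearMap.mem_ker.1 hx) i)
  have h2 := LinearMap.finrank_range_add_finrank_ker φ
  have h3 : finrank F (LinearMap.range φ) ≤ k :=
    (Submodule.finrank_le _).trans (by rw [finrank_fin_fun])
  have h4 := Submodule.finrank_mono h1
  rw [finrank_fin_fun] at h2
  omega

end Forms

namespace Orth

variable {P} {x y : Fin m → F}

lemma symm (h : Orth P x y) : Orth P y x := by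
  obtain ⟨hx, hy, hxy⟩ := h
  refine ⟨fun h0 => hy (h0 ▸ zero_mem _), fun hm => hy ?_, by rw [P.g_symm, hxy]⟩
  obtain ⟨c, hc⟩ := Submodule.mem_span_singleton.1 hm
  have hc0 : c ≠ 0 := fun h0 => hx (by rw [← hc, h0, zero_smul])
  exact Submodule.mem_span_singleton.2 ⟨c⁻¹, by rw [← hc, inv_smul_smul₀ hc0]⟩

/-- A companion of a vector in a pair and room for a second one. -/
lemma exists_chain {v e : Fin m → F} (h : Orth P v e) :
    ∃ e' e₂, P.g e' e = 1 ∧ P.g e' v = 0 ∧ Orth P e' e₂ ∧ Orth P v e₂ ∧ P.g e₂ e = 0 := by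
  obtain ⟨e', he', hve'⟩ := P.alt.exists_pair h.2.1
  have he'0 : e' ≠ 0 := fun h0 => by simp [h0] at he'
  obtain ⟨e₂, he₂, hperp⟩ := P.exists_perp_avoid ![v, e, e']
    (Submodule.span F {v, e'}) (by have := P.finrank_span_pair v e'; have := P.dim; omega)
  have h1 : P.g e₂ v = 0 := hperp 0
  have h2 : P.g e₂ e = 0 := hperp 1
  have h3 : P.g e₂ e' = 0 := hperp 2
  exact ⟨e', e₂, he', hve',
    ⟨he'0, fun hm => he₂ (Submodule.span_mono (by simp) hm), by rw [P.g_symm, h3]⟩,
    ⟨h.1, fun hm => he₂ (Submodule.span_mono (by simp) hm), by rw [P.g_symm, h1]⟩, h2⟩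

end Orth

variable {P} {G : Subgroup ((Fin m → W) ≃ₗ[F] (Fin m → W))}

/-- The identity occurs at every orthogonal pair. -/
lemma mem_dq_one (hG : Grp P G) {x y : Fin m → F} (h : P.g x y = 0) :
    Mem G (dq P LinearMap.id LinearMap.id x y) := by
  have h' : P.g y x = 0 := by rw [P.g_symm, h]
  refine (((hG.trv (x + y) 1).add (hG.trv x 1) fun X => ?_).add (hG.trv y 1) fun X => ?_).congr
    fun X => ?_
  · simp [P.ev_eta_ins, h, h', P.alt.alt, -ev_apply, -ins_apply]
  · simp [P.ev_eta_ins, h, h', P.alt.alt, -ev_apply, -ins_apply]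
  · have e1 : evs P (x + y) X = evs P x X + evs P y X := P.evs_add x y X
    simp only [dq, LinearMap.add_apply, LinearMap.smul_apply, one_smul, root_apply,
      LinearMap.id_apply, ins_add, map_add, evs] at e1 ⊢
    rw [e1, map_add, map_add]
    have a1 := P.add_self (ins x (ev (eta P x) X))
    have a2 := P.add_self (ins y (ev (eta P y) X))
    linear_combination (norm := abel) a1 + a2

/-- The blocks of an element of the radical of the stabiliser of a line are scalar. -/
lemma scalar_of_radical (hG : Grp P G) (hP : NoPar P G) {E : (Fin m → W) →ₗ[F] (Fin m → W)}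
    (hE : Mem G E) {v w₀ : Fin m → F} (hw₀ : P.g w₀ v = 1) (hL : ∀ w, E (ins v w) = 0)
    (himg : ∀ X, evs P v (E X) = 0) (hperp : ∀ X, evs P v X = 0 → E X ∈ line W v)
    {e : Fin m → F} (he : Orth P v e) (N : W →ₗ[F] W) (hN : ∀ w, E (ins e w) = ins v (N w)) :
    ∃ c : F, N = c • LinearMap.id := by
  have hev : P.g e v = 0 := by rw [P.g_symm, he.2.2]
  have hline : ∀ X, evs P v X = 0 → evs P e (E X) = 0 ∧ E (E X) = 0 := fun X hX => by
    obtain ⟨u, hu⟩ := hperp X hX
    rw [← hu, P.evs_ins, he.2.2, zero_smul, hL]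
    exact ⟨rfl, rfl⟩
  have hEEE : ∀ X, E (E (E X)) = 0 := fun X => (hline (E X) (himg X)).2
  set R := evs P e ∘ₗ E ∘ₗ ins w₀ with hR
  have hR0 : ∀ X, evs P e (E X) = R (evs P v X) := fun X => by
    have h1 := (hline (X - ins w₀ (evs P v X))
      (by rw [map_sub, P.evs_ins, hw₀, one_smul, sub_self])).1
    rw [map_sub, map_sub, sub_eq_zero] at h1
    exact h1
  obtain ⟨g, hg, hgx⟩ := hE
  obtain ⟨t, ht, htx⟩ := hG.trv e 1
  have htx' : ∀ X, t X = X + ins e (evs P e X) := fun X => by rw [htx, one_smul]; rfl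
  have hti : ∀ X, t⁻¹ X = X + ins e (evs P e X) := fun X => t.injective (by
    rw [self_inv_apply, htx', map_add, P.evs_ins, P.alt.alt, zero_smul, add_zero, add_assoc,
      P.add_self, add_zero])
  have hgi : ∀ X, g⁻¹ X = X - E X + E (E X) := fun X => g.injective (by
    rw [self_inv_apply, hgx, map_add, map_sub, hEEE, add_zero]
    abel)
  have hK : Mem G (dq P N R v e + root v (eta P v) (N ∘ₗ R)) := by
    refine ⟨t * g * t⁻¹ * g⁻¹, mul_mem (mul_mem (mul_mem ht hg) (inv_mem ht)) (inv_mem hg),
      fun X => ?_⟩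
    simp only [LinearEquiv.mul_apply, hti]
    rw [map_add g, self_inv_apply, hgx (ins e _), hN, htx']
    have hZ : evs P e (g⁻¹ X) = evs P e X + R (evs P v X) := by
      rw [hgi, map_add, map_sub, (hline (E X) (himg X)).1, add_zero, hR0, sub_eq_add_neg, P.neg_eq]
    simp only [hZ, dq, LinearMap.add_apply, root_apply, LinearMap.comp_apply, map_add, P.evs_ins,
      P.alt.alt, he.2.2, hev, zero_smul, add_zero, zero_add, map_zero, evs] at *
    have a1 := P.add_self (ins e (ev (eta P e) X))
    linear_combination (norm := abel) a1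
  obtain ⟨e', e₂, h1, h2, h4, h5, h6⟩ := he.exists_chain
  have h1' : P.g e e' = 1 := by rw [P.g_symm, h1]
  have h2' : P.g v e' = 0 := by rw [P.g_symm, h2]
  have h5' : P.g e₂ v = 0 := h5.symm.2.2
  have h6' : P.g e e₂ = 0 := by rw [P.g_symm, h6]
  have h4' : P.g e₂ e' = 0 := h4.symm.2.2
  refine hP v e₂ N R h5 ((mem_comm (mem_dq_one hG h4.2.2) hK ?_ ?_ ?_ ?_).congr fun X => ?_)
  all_goals
    try intro X
    simp only [dq, LinearMap.add_apply, LinearMap.sub_apply, LinearMap.comp_apply, map_add,
      root_apply, P.ev_eta_ins, LinearMap.id_apply, map_smul, he.2.2, hev, h1, h1', h2, h2', h4.2.2, h4', h5.2.2, h5', h6, h6', P.alt.alt,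
      zero_smul, one_smul, add_zero, zero_add, LinearMap.comp_id, LinearMap.id_comp, map_zero,
      smul_zero, LinearMap.zero_apply, LinearMap.map_smul, sub_eq_add_neg, P.neg_eq]

end Cfsg.Agent.MaxSub.TensorPowSp.Even
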