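import Cfsg.Agent.MaxSub.TensorPowSp.Even.Basic

/-!
Without non-scalar parameters an isometry mapping one line `v ⊗ W` onto another is a tensor product.
-/

set_option autoImplicit false
set_option linter.unusedSectionVars false
set_option linter.unusedSimpArgs false

namespace Cfsg.Agent.MaxSub.TensorPowSp.Even

open Module Matrix Cfsg.Agent.MaxSub.TensorPow
open Cfsg.Agent.MaxSub.ExtField (Mem inv_apply_self self_inv_apply)

universe u w

variable {F : Type u} [Field F] {m : ℕ} {W : Type w} [AddCommGroup W] [Module F W]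
  [FiniteDimensional F W] [Nontrivial W] {P : Forms F m W}
  {G G' : Subgroup ((Fin m → W) ≃ₗ[F] (Fin m → W))}

/-- An isometry carrying `G` onto `G'`. -/
structure Carry (P : Forms F m W) (G G' : Subgroup ((Fin m → W) ≃ₗ[F] (Fin m → W)))
    (h : (Fin m → W) ≃ₗ[F] (Fin m → W)) : Prop where
  hG : Grp P G
  hG' : Grp P G'
  hP : NoPar P G
  hP' : NoPar P G'
  iso : ∀ X Y, bV P (h X) (h Y) = bV P X Y
  fwd : ∀ g ∈ G, h * g * h⁻¹ ∈ G'
  bwd : ∀ g ∈ G', h⁻¹ * g * h ∈ G

lemma Carry.refl (hG : Grp P G) (hP : NoPar P G) {h : (Fin m → W) ≃ₗ[F] (Fin m → W)} (hh : h ∈ G) :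
    Carry P G G h :=
  ⟨hG, hG, hP, hP, hG.iso h hh, fun _ hg => G.mul_mem (G.mul_mem hh hg) (G.inv_mem hh),
    fun _ hg => G.mul_mem (G.mul_mem (G.inv_mem hh) hg) hh⟩

/-- A vector orthogonal to the line complement. -/
lemma mem_line_of_perp {v : Fin m → F} (hv : v ≠ 0) {Z : Fin m → W}
    (hZ : ∀ c, P.g c v = 0 → evs P c Z = 0) : Z ∈ line W v := by
  obtain ⟨w₁, hw⟩ := P.exists_dual_vec hv
  have hvw : P.g v w₁ = 1 := by rw [P.g_symm, hw]
  refine ⟨evs P w₁ Z, (sub_eq_zero.1 (P.eq_zero_of_evs _ fun c => ?_)).symm⟩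
  have h1 := hZ (c + P.g c v • w₁) (by simp [hw, P.add_self])
  rw [P.evs_add, P.evs_smul, add_eq_zero_iff_eq_neg, P.neg_eq] at h1
  rw [map_sub, P.evs_ins, h1, P.g_symm c v, sub_self]

variable {h : (Fin m → W) ≃ₗ[F] (Fin m → W)} (C : Carry P G G' h)
include C

/-- The lines orthogonal to a line mapped to a line. -/
lemma Carry.step {v v' : Fin m → F} (hv : v ≠ 0) (hv' : v' ≠ 0) (β' : W ≃ₗ[F] W)
    (hhv : ∀ w, h (ins v w) = ins v' (β' w)) {e : Fin m → F} (hev : P.g e v = 0) :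
    ∃ Γ : Fin m → F, ∀ w, h (ins e w) = ins Γ (β' w) := by
  classical
  by_cases hmem : e ∈ F ∙ v
  · obtain ⟨r, rfl⟩ := Submodule.mem_span_singleton.1 hmem
    exact ⟨r • v', fun w => by rw [ins_smul, map_smul, hhv, ins_smul]⟩
  obtain ⟨w₀, hw₀⟩ := P.exists_dual_vec hv
  obtain ⟨w₁, hw₁⟩ := P.exists_dual_vec hv'
  have hvw₁ : P.g v' w₁ = 1 := by rw [P.g_symm, hw₁]
  have hhi : ∀ w, h⁻¹ (ins v' w) = ins v (β'.symm w) := fun w => h.injective (by
    rw [self_inv_apply, hhv, LinearEquiv.apply_symm_apply])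
  have hadj : ∀ X w, P.b (evs P v' (h X)) (β' w) = P.b (evs P v X) w := fun X w => by
    rw [← P.bV_ins_right, ← P.bV_ins_right, ← hhv, C.iso]
  have hperp : ∀ X, evs P v X = 0 → evs P v' (h X) = 0 := fun X hX =>
    P.b_nd _ fun w => by
      rw [← β'.apply_symm_apply w, hadj, hX, map_zero, LinearMap.zero_apply]
  have hperp' : ∀ X, evs P v' X = 0 → evs P v (h⁻¹ X) = 0 := fun X hX =>
    P.b_nd _ fun w => by
      rw [← hadj, self_inv_apply, hX, map_zero, LinearMap.zero_apply]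
  obtain ⟨y₀, hy₀⟩ := exists_ne (0 : W)
  obtain ⟨φ, hφ⟩ : ∃ φ : W →ₗ[F] F, φ (β' y₀) = 1 := by
    obtain ⟨φ, hφ, -⟩ := Submodule.exists_dual_map_eq_bot_of_notMem
      (p := (⊥ : Submodule F W)) (x := β' y₀)
      (fun h0 => hy₀ (β'.injective (((Submodule.mem_bot F).1 h0).trans (map_zero _).symm)))
      inferInstance
    exact ⟨(φ (β' y₀))⁻¹ • φ, by simp [hφ]⟩
  let Γ : (Fin m → F) → Fin m → F := fun e j => φ (h (ins e y₀) j)
  have hΓ : ∀ e c, P.g (Γ e) c = φ (evs P c (h (ins e y₀))) := fun e c => by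
    rw [← P.eta_dot c]
    simp only [evs, ev_apply, map_sum, map_smul, smul_eq_mul, dotProduct, Γ]
  have hΓperp : ∀ e, P.g e v = 0 → P.g (Γ e) v' = 0 := fun e he => by
    rw [hΓ, hperp _ (by rw [P.evs_ins, he, zero_smul]), map_zero]
  let ρ : (Fin m → F) → W →ₗ[F] W := fun e =>
    evs P w₁ ∘ₗ (h.toLinearMap ∘ₗ ins e - ins (Γ e) ∘ₗ β'.toLinearMap)
  -- the middle block
  have hmid : ∀ e, P.g e v = 0 → e ∉ F ∙ v →
      ∀ w, h (ins e w) = ins (Γ e) (β' w) + ins v' (ρ e w) := by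
    intro e he hemem
    have hs : ∀ c, P.g c v' = 0 → ∃ s : F, ∀ w, evs P c (h (ins e w)) = s • β' w := by
      intro c hc
      have hvc : P.g v' c = 0 := by rw [P.g_symm, hc]
      obtain ⟨g, hg, hgx⟩ := mem_dq_one C.hG' hvc
      have hE : Mem G (h.symm.toLinearMap ∘ₗ dq P LinearMap.id LinearMap.id v' c ∘ₗ h.toLinearMap) :=
        ⟨h⁻¹ * g * h, C.bwd g hg, fun X => by
          simp only [LinearEquiv.mul_apply, hgx, map_add, inv_apply_self]
          rfl⟩
      obtain ⟨s, hs⟩ := scalar_of_radical C.hG C.hP hE hw₀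
        (fun w => by simp [hhv, dq, P.ev_eta_ins, hvc, P.alt.alt, -ins_apply, -ev_apply])
        (fun X => hperp' _ (by
          simp [dq, P.ev_eta_ins, hc, P.alt.alt, -ins_apply, -ev_apply, root_apply]))
        (fun X hX => by
          refine ⟨β'.symm (evs P c (h X)), ?_⟩
          have h1 : ev (eta P v') (h X) = 0 := hperp X hX
          rw [← hhi]
          simp only [dq, LinearMap.comp_apply, LinearMap.add_apply, root_apply, LinearEquiv.coe_coe,
            LinearMap.id_apply, h1, map_zero, add_zero]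
          rfl)
        ⟨hv, hemem, by rw [P.g_symm, he]⟩ (β'.symm.toLinearMap ∘ₗ evs P c ∘ₗ h.toLinearMap ∘ₗ ins e)
        (fun w => by
          have h1 : ev (eta P v') (h (ins e w)) = 0 :=
            hperp _ (by rw [P.evs_ins, he, zero_smul])
          rw [LinearMap.comp_apply (f := β'.symm.toLinearMap), LinearEquiv.coe_coe, ← hhi]
          simp only [dq, LinearMap.comp_apply, LinearMap.add_apply, root_apply, LinearEquiv.coe_coe,
            LinearMap.id_apply, h1, map_zero, add_zero]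
          rfl)
      refine ⟨s, fun w => ?_⟩
      have h1 := congrArg β' (LinearMap.congr_fun hs w)
      simp only [LinearMap.comp_apply, LinearEquiv.coe_coe, LinearMap.smul_apply, LinearMap.id_apply,
        LinearEquiv.apply_symm_apply, map_smul] at h1
      exact h1
    intro w
    obtain ⟨a, ha⟩ := mem_line_of_perp hv' (Z := h (ins e w) - ins (Γ e) (β' w)) fun c hc => by
      obtain ⟨s, hs⟩ := hs c hc
      rw [map_sub, P.evs_ins, hΓ, hs, hs, map_smul, hφ, smul_eq_mul, mul_one, sub_self]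
    show _ = _ + ins v' (evs P w₁ (h (ins e w) - ins (Γ e) (β' w)))
    rw [← ha, P.evs_ins, hvw₁, one_smul, ha]
    abel
  have hρ0 : ∀ e, P.g e v = 0 → e ∉ F ∙ v → φ (ρ e y₀) = 0 := fun e he hemem => by
    have h1 := congrArg (fun X => φ ∘ X) (hmid e he hemem y₀)
    have h2 : ∀ j, Γ e j = Γ e j + v' j * φ (ρ e y₀) := fun j => by
      have := congrFun h1 j
      simp [hφ] at this
      exact this
    obtain ⟨j, hj⟩ := Function.ne_iff.1 hv'
    exact (mul_eq_zero.1 (left_eq_add.1 (h2 j))).resolve_left hj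
  -- a partner of `e`
  obtain ⟨e', he'e, he'v⟩ := P.alt.exists_pair hmem
  have he'mem : e' ∉ F ∙ v := fun hm => by
    obtain ⟨r, rfl⟩ := Submodule.mem_span_singleton.1 hm
    rw [map_smul, LinearMap.smul_apply, P.g_symm v e, hev, smul_zero] at he'e
    exact zero_ne_one he'e
  have hve : P.g v e = 0 := by rw [P.g_symm, hev]
  have hv'Γ : ∀ e, P.g e v = 0 → P.g v' (Γ e) = 0 := fun e he => by rw [P.g_symm, hΓperp e he]
  set l := P.g (Γ e) (Γ e') with hl
  have hlb : ∀ w w', l * P.b (β' w) (β' w') = P.b w w' := fun w w' => by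
    have h1 := C.iso (ins e w) (ins e' w')
    rw [P.bV_ins_ins, P.g_symm e e', he'e, one_mul, hmid e hev hmem, hmid e' he'v he'mem] at h1
    rw [← h1]
    simp only [P.bV_add_left, P.bV_add_right, P.bV_ins_ins, P.alt.alt, hv'Γ e' he'v,
      hΓperp e hev, ← hl, zero_mul, add_zero]
  have hl0 : l ≠ 0 := fun h0 => hy₀ (P.b_nd y₀ fun w' => by rw [← hlb, h0, zero_mul])
  have hkey : ∀ X, evs P v' X = 0 → evs P (Γ e) X = l • β' (evs P e (h⁻¹ X)) := fun X hX => by
    refine sub_eq_zero.1 (P.b_nd _ fun w => ?_)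
    obtain ⟨w, rfl⟩ := β'.surjective w
    have h1 : P.b (evs P (Γ e) X) (β' w) = P.b (evs P e (h⁻¹ X)) w := by
      rw [← P.bV_ins_right (h⁻¹ X) e w, ← C.iso, self_inv_apply, hmid e hev hmem, P.bV_add_right,
        P.bV_ins_right, P.bV_ins_right X v', hX, map_zero, LinearMap.zero_apply, add_zero]
    rw [map_sub, LinearMap.sub_apply, h1, map_smul, LinearMap.smul_apply, smul_eq_mul, hlb, sub_self]
  -- the element removing the middle block
  obtain ⟨t, ht, htx⟩ := C.hG.trv e 1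
  have hD0 : Mem G' (h.toLinearMap ∘ₗ root e (eta P e) LinearMap.id ∘ₗ
      (h⁻¹ : _ ≃ₗ[F] _).toLinearMap) :=
    ⟨h * t * h⁻¹, C.fwd t ht, fun X => by
      simp [LinearEquiv.mul_apply, htx, self_inv_apply]⟩
  have hE := hD0.add (C.hG'.trv (Γ e) l⁻¹) fun X => by
    set a := evs P (Γ e) X
    have h1 : h⁻¹ (ins (Γ e) a) = ins e (β'.symm a) + ins v (β'.symm (ρ e (β'.symm a))) :=
      h.injective (by
        rw [self_inv_apply, map_add, hhv, hmid e hev hmem, LinearEquiv.apply_symm_apply,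
          LinearEquiv.apply_symm_apply, add_assoc, P.add_self, add_zero])
    simp only [LinearMap.comp_apply, LinearEquiv.coe_coe, LinearMap.smul_apply, LinearMap.id_apply,
      map_smul]
    rw [show ev (eta P (Γ e)) X = a from rfl, h1, map_add, P.ev_eta_ins, P.ev_eta_ins, P.alt.alt,
      hve]
    simp
  have hEperp : ∀ X, evs P v' X = 0 →
      ((h.toLinearMap ∘ₗ root e (eta P e) LinearMap.id ∘ₗ (h⁻¹ : _ ≃ₗ[F] _).toLinearMap +
        l⁻¹ • root (Γ e) (eta P (Γ e)) LinearMap.id : (Fin m → W) →ₗ[F] (Fin m → W))) X = ins v' (ρ e (evs P e (h⁻¹ X))) := fun X hX => by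
    simp only [LinearMap.add_apply, LinearMap.comp_apply, LinearEquiv.coe_coe, LinearMap.smul_apply,
      root_apply, LinearMap.id_apply]
    rw [show ev (eta P (Γ e)) X = evs P (Γ e) X from rfl, hkey X hX, hmid e hev hmem, map_smul,
      inv_smul_smul₀ hl0, add_comm, ← add_assoc, P.add_self, zero_add]
  have hΓe' : Γ e' ∉ F ∙ v' := fun hm => by
    obtain ⟨r, hr⟩ := Submodule.mem_span_singleton.1 hm
    apply hl0
    rw [hl, ← hr, map_smul, P.g_symm (Γ e) v', hv'Γ e hev, smul_zero]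
  obtain ⟨s, hs⟩ := scalar_of_radical C.hG' C.hP' hE hw₁ (v := v')
    (fun w => by
      have h1 : h.symm (ins v' w) = ins v (β'.symm w) := hhi w
      simp [h1, hhi, P.ev_eta_ins, hve, hv'Γ e hev, -ins_apply, -ev_apply, root_apply])
    (fun X => by
      simp only [LinearMap.add_apply, LinearMap.comp_apply, LinearEquiv.coe_coe, map_add,
        LinearMap.smul_apply, map_smul, root_apply, LinearMap.id_apply, P.evs_ins, hΓperp e hev,
        zero_smul, smul_zero, add_zero]
      exact hperp _ (by rw [P.evs_ins, hev, zero_smul]))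
    (fun X hX => by rw [hEperp X hX]; exact ⟨_, rfl⟩)
    (e := Γ e') ⟨hv', hΓe', hv'Γ e' he'v⟩ (ρ e ∘ₗ β'.symm.toLinearMap)
    (fun w => by
      rw [hEperp _ (by rw [P.evs_ins, hΓperp e' he'v, zero_smul])]
      have h1 : h⁻¹ (ins (Γ e') w) = ins e' (β'.symm w) + ins v (β'.symm (ρ e' (β'.symm w))) :=
        h.injective (by
          rw [self_inv_apply, map_add, hhv, hmid e' he'v he'mem, LinearEquiv.apply_symm_apply,
            LinearEquiv.apply_symm_apply, add_assoc, P.add_self, add_zero])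
      rw [h1, map_add, P.evs_ins, P.evs_ins, he'e, hve, one_smul, zero_smul, add_zero]
      rfl)
  have hρ : ∀ w, ρ e w = s • β' w := fun w => by
    have := LinearMap.congr_fun hs (β' w)
    simpa using this
  have hs0 : s = 0 := by
    have := hρ0 e hev hmem
    rw [hρ, map_smul, hφ, smul_eq_mul, mul_one] at this
    exact this
  exact ⟨Γ e, fun w => by rw [hmid e hev hmem, hρ, hs0, zero_smul, map_zero, add_zero]⟩

/-- An isometry mapping a line onto a line is a tensor product. -/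
theorem Carry.isT_of_line {v v' : Fin m → F} (hv : v ≠ 0)
    (hline : ∀ w, h (ins v w) ∈ line W v') : IsT h := by
  classical
  have hv' : v' ≠ 0 := fun h0 => by
    obtain ⟨w, hw⟩ := exists_ne (0 : W)
    obtain ⟨a, ha⟩ := hline w
    rw [h0, ins_zero] at ha
    exact hw (ins_injective hv ((h.injective (ha.symm.trans (map_zero h).symm)).trans
      (map_zero _).symm))
  obtain ⟨w₁, hw₁⟩ := P.exists_dual_vec hv'
  have hvw₁ : P.g v' w₁ = 1 := by rw [P.g_symm, hw₁]
  set β₀ : W →ₗ[F] W := evs P w₁ ∘ₗ h.toLinearMap ∘ₗ ins v with hβ₀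
  have hβ : ∀ w, h (ins v w) = ins v' (β₀ w) := fun w => by
    obtain ⟨a, ha⟩ := hline w
    show _ = ins v' (evs P w₁ (h (ins v w)))
    rw [← ha, P.evs_ins, hvw₁, one_smul]
  have hinj : Function.Injective β₀ := fun x y hxy =>
    ins_injective hv (h.injective (by rw [hβ, hβ, hxy]))
  set β' := LinearEquiv.ofInjectiveEndo β₀ hinj
  refine isT_of_forall β' fun u μ => ?_
  obtain ⟨e, he, hperp⟩ := P.exists_perp_avoid ![v, u] (F ∙ v) (by
    rw [finrank_span_singleton hv]; have := P.dim; omega)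
  have hev : P.g e v = 0 := hperp 0
  have heu : P.g u e = 0 := by rw [P.g_symm]; exact hperp 1
  have he0 : e ≠ 0 := fun h0 => he (h0 ▸ zero_mem _)
  obtain ⟨Γ, hΓ⟩ := C.step hv hv' β' (fun w => hβ w) hev
  have hΓ0 : Γ ≠ 0 := fun h0 => by
    obtain ⟨w, hw⟩ := exists_ne (0 : W)
    have h1 := hΓ w
    rw [h0, ins_zero] at h1
    exact hw (ins_injective he0 ((h.injective (h1.trans (map_zero h).symm)).trans (map_zero _).symm))
  obtain ⟨Γ', hΓ'⟩ := C.step he0 hΓ0 β' hΓ heu
  exact ⟨μ ⬝ᵥ Γ', fun w => by rw [hΓ', ev_ins]⟩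

end Cfsg.Agent.MaxSub.TensorPowSp.Even
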