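import Cfsg.Agent.MaxSub.TensorPowSp.Even.Basic

/-!
The maps occurring at all pairs of orthogonal lines form an algebra.
-/

set_option autoImplicit false
set_option linter.unusedSectionVars false
set_option linter.unusedSimpArgs false

namespace Cfsg.Agent.MaxSub.TensorPowSp.Even

open Module Matrix Cfsg.Agent.MaxSub.TensorPow
open Cfsg.Agent.MaxSub.ExtField (Mem inv_apply_self self_inv_apply mem_zero)

universe u w

variable {F : Type u} [Field F] {m : ℕ} {W : Type w} [AddCommGroup W] [Module F W]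
  (P : Forms F m W)

/-- A property of the orthogonal pairs invariant under transvections holds for all. -/
lemma orth_transitive {Q : (Fin m → F) → (Fin m → F) → Prop}
    (hstep : ∀ (c : Fin m → F) (s : F) x y, P.g x y = 0 → Q x y →
      Q (x + (s * P.g x c) • c) (y + (s * P.g y c) • c))
    {x y x' y' : Fin m → F} (h : Orth P x y) (h' : Orth P x' y') (hq : Q x y) : Q x' y' := by
  have right : ∀ (R : (Fin m → F) → (Fin m → F) → Prop),
      (∀ (c : Fin m → F) (s : F) x y, P.g x y = 0 → R x y →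
        R (x + (s * P.g x c) • c) (y + (s * P.g y c) • c)) →
      ∀ {x y y'}, Orth P x y → Orth P x y' → R x y → R x y' := by
    intro R hR x y y' h h' hq
    have one : ∀ y y', P.g x y = 0 → P.g x y' = 0 → P.g y y' ≠ 0 → R x y → R x y' := by
      intro y y' h1 h2 hyy hm
      have h3 := hR (y' - y) (P.g y y')⁻¹ x y h1 hm
      simpa [map_sub, P.alt.alt, inv_mul_cancel₀ hyy, h1, h2] using h3
    by_cases hyy : P.g y y' ≠ 0
    · exact one y y' h.2.2 h'.2.2 hyy hq
    obtain ⟨z₁, hz₁, hz₁x⟩ := P.alt.exists_pair h.2.1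
    obtain ⟨z₂, hz₂, hz₂x⟩ := P.alt.exists_pair h'.2.1
    obtain ⟨z, hzx, hzy, hzy'⟩ : ∃ z, P.g x z = 0 ∧ P.g y z ≠ 0 ∧ P.g z y' ≠ 0 := by
      by_cases h1 : P.g z₁ y' ≠ 0
      · exact ⟨z₁, by rw [P.g_symm, hz₁x], by rw [P.g_symm, hz₁]; exact one_ne_zero, h1⟩
      by_cases h2 : P.g z₂ y ≠ 0
      · exact ⟨z₂, by rw [P.g_symm, hz₂x], by rw [P.g_symm]; exact h2,
          by rw [hz₂]; exact one_ne_zero⟩
      push Not at h1 h2
      refine ⟨z₁ + z₂, ?_, ?_, ?_⟩
      · rw [P.g_symm, map_add, LinearMap.add_apply, hz₁x, hz₂x, add_zero]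
      · rw [P.g_symm, map_add, LinearMap.add_apply, hz₁, h2, add_zero]
        exact one_ne_zero
      · rw [map_add, LinearMap.add_apply, h1, hz₂, zero_add]
        exact one_ne_zero
    exact one z y' hzx h'.2.2 hzy' (one y z h.2.2 hzx hzy hq)
  have left : ∀ {x y y'}, Orth P x y → Orth P x y' → Q y x → Q y' x := fun {x y y'} h h' hq =>
    right (fun a b => Q b a)
      (fun c s a b hab hb => hstep c s b a (by rw [P.g_symm, hab]) hb) h h' hq
  obtain ⟨e, he, hperp⟩ := P.exists_perp_avoid ![x, x'] (Submodule.span F {x, x'})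
    (by have := P.finrank_span_pair x x'; have := P.dim; omega)
  have h1 : P.g e x = 0 := hperp 0
  have h2 : P.g e x' = 0 := hperp 1
  have o1 : Orth P x e :=
    ⟨h.1, fun hm => he (Submodule.span_mono (by simp) hm), by rw [P.g_symm, h1]⟩
  have o2 : Orth P x' e :=
    ⟨h'.1, fun hm => he (Submodule.span_mono (by simp) hm), by rw [P.g_symm, h2]⟩
  exact right Q hstep o2 h' (left o1.symm o2.symm (right Q hstep h o1 hq))

/-- The maps occurring at the pairs of orthogonal lines. -/
def Nset (G : Subgroup ((Fin m → W) ≃ₗ[F] (Fin m → W))) (N : W →ₗ[F] W) : Prop :=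
  ∃ N' : W →ₗ[F] W, ∀ x y, Orth P x y → Mem G (dq P N N' x y)

variable {P} {G : Subgroup ((Fin m → W) ≃ₗ[F] (Fin m → W))}

lemma dq_swap (N N' : W →ₗ[F] W) (x y : Fin m → F) : dq P N N' x y = dq P N' N y x := by
  rw [dq, dq, add_comm]

lemma exists_orth (P : Forms F m W) : ∃ x y, Orth P x y := by
  have hm := P.dim
  have hx : (Pi.single ⟨0, by omega⟩ 1 : Fin m → F) ≠ 0 := by simp
  obtain ⟨y, hy, hperp⟩ := P.exists_perp_avoid ![(Pi.single ⟨0, by omega⟩ 1 : Fin m → F)]
    (F ∙ (Pi.single ⟨0, by omega⟩ 1 : Fin m → F)) (by rw [finrank_span_singleton hx]; omega)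
  have h1 : P.g y (Pi.single ⟨0, by omega⟩ 1) = 0 := hperp 0
  exact ⟨_, y, hx, hy, by rw [P.g_symm, h1]⟩

variable (hG : Grp P G)
include hG

/-- Transvections of the first factor move the lines. -/
lemma dq_step {x y : Fin m → F} {N N' : W →ₗ[F] W} (h : Mem G (dq P N N' x y)) (c : Fin m → F)
    (s : F) : Mem G (dq P N N' (x + (s * P.g x c) • c) (y + (s * P.g y c) • c)) := by
  obtain ⟨t, ht, htx⟩ := hG.trv c s
  have hti : ∀ X, t⁻¹ X = X + s • ins c (evs P c X) := fun X => t.injective (by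
    rw [self_inv_apply, htx]
    simp only [LinearMap.smul_apply, root_apply, LinearMap.id_apply, map_add, map_smul,
      P.ev_eta_ins, P.alt.alt, zero_smul, smul_zero, map_zero, add_zero, evs]
    rw [add_assoc, P.add_self, add_zero])
  refine (h.conj ht).congr fun X => ?_
  simp only [LinearMap.comp_apply, LinearEquiv.coe_coe]
  rw [hti, htx]
  have hev : ∀ p, evs P (p + (s * P.g p c) • c) X = evs P p X + (s * P.g p c) • evs P c X := fun p => by
    rw [P.evs_add, P.evs_smul]
  simp only [evs] at hev ⊢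
  simp only [dq, LinearMap.add_apply, LinearMap.smul_apply, root_apply, LinearMap.id_apply, hev,
    ins_add, ins_smul, map_add, map_smul, P.ev_eta_ins, smul_smul, smul_add, P.g_symm c y, P.g_symm c x]
  module

lemma nset_of_mem {x y : Fin m → F} {N N' : W →ₗ[F] W} (h : Orth P x y)
    (hm : Mem G (dq P N N' x y)) : Nset P G N :=
  ⟨N', fun _ _ h' => orth_transitive P (Q := fun x y => Mem G (dq P N N' x y))
    (fun c s _ _ _ hh => dq_step hG hh c s) h h' hm⟩

/-- The isometry condition gives the adjoint. -/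
lemma adjoint_of_mem {x y : Fin m → F} {N N' : W →ₗ[F] W} (h : Orth P x y)
    (hm : Mem G (dq P N N' x y)) (r s : W) : P.b (N r) s = P.b r (N' s) := by
  obtain ⟨h₀, hh, hx⟩ := hm
  obtain ⟨y₀, hy₀, hy₀x⟩ := P.alt.exists_pair h.2.1
  obtain ⟨x₀, hx₀, hx₀y⟩ := P.alt.exists_pair h.symm.2.1
  have h1 : h₀ (ins y₀ r) = ins y₀ r + ins x (N r) := by
    rw [hx]; simp [dq, root_apply, P.ev_eta_ins, hy₀, hy₀x, -ins_apply, -ev_apply]
  have h2 : h₀ (ins x₀ s) = ins x₀ s + ins y (N' s) := by
    rw [hx]; simp [dq, root_apply, P.ev_eta_ins, hx₀, hx₀y, -ins_apply, -ev_apply]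
  have h3 := hG.iso h₀ hh (ins y₀ r) (ins x₀ s)
  rw [h1, h2] at h3
  simp only [P.bV_add_left, P.bV_add_right, P.bV_ins_ins, hy₀, P.g_symm x x₀, hx₀, h.2.2, one_mul,
    zero_mul, add_zero] at h3
  linear_combination h3 - P.b r (N' s) * P.h2

lemma nset_one : Nset P G (LinearMap.id : W →ₗ[F] W) :=
  ⟨LinearMap.id, fun _ _ h => mem_dq_one hG h.2.2⟩

omit hG in
lemma Nset.add {N M : W →ₗ[F] W} (hN : Nset P G N) (hM : Nset P G M) : Nset P G (N + M) := by
  obtain ⟨N', hN⟩ := hN
  obtain ⟨M', hM⟩ := hM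
  refine ⟨N' + M', fun x y h => ((hN x y h).add (hM x y h) fun X => ?_).congr fun X => ?_⟩
  · simp [dq, root_apply, P.ev_eta_ins, h.2.2, h.symm.2.2, P.alt.alt, -ins_apply, -ev_apply]
  · simp only [dq, LinearMap.add_apply, root_apply, map_add]
    abel

omit hG in
lemma Nset.smul {N : W →ₗ[F] W} (hN : Nset P G N) (c : F) : Nset P G (c • N) := by
  obtain ⟨N', hN⟩ := hN
  refine ⟨c • N', fun x y h => ?_⟩
  rcases eq_or_ne c 0 with rfl | hc
  · exact mem_zero.congr fun X => by simp [dq, root_apply, -ins_apply, -ev_apply]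
  · have h' : Orth P (c • x) y := by
      refine ⟨smul_ne_zero hc h.1, ?_, by simp [h.2.2]⟩
      rw [show F ∙ (c • x) = F ∙ x from
        Submodule.span_singleton_smul_eq (isUnit_iff_ne_zero.2 hc) x]
      exact h.2.1
    refine (hN _ _ h').congr fun X => ?_
    have e : ev (eta P (c • x)) X = c • ev (eta P x) X := P.evs_smul c x X
    simp only [dq, LinearMap.add_apply, root_apply, e, ins_smul, map_smul, LinearMap.smul_apply]

omit hG in
lemma Nset.comp {N M : W →ₗ[F] W} (hG : Grp P G) (hN : Nset P G N) (hM : Nset P G M) :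
    Nset P G (N ∘ₗ M) := by
  obtain ⟨N', hN⟩ := hN
  obtain ⟨M', hM⟩ := hM
  obtain ⟨v, e, hve⟩ := exists_orth P
  obtain ⟨e', e₂, h1, h2, h4, h5, h6⟩ := hve.exists_chain
  have h1' : P.g e e' = 1 := by rw [P.g_symm, h1]
  have h2' : P.g v e' = 0 := by rw [P.g_symm, h2]
  have h6' : P.g e e₂ = 0 := by rw [P.g_symm, h6]
  refine nset_of_mem hG h5 (N' := M' ∘ₗ N') ((mem_comm (hN v e hve) (hM e' e₂ h4) ?_ ?_ ?_ ?_).congr
    fun X => ?_)
  all_goals
    try intro X
    simp only [dq, LinearMap.add_apply, LinearMap.sub_apply, LinearMap.comp_apply, map_add,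
      root_apply, P.ev_eta_ins, map_smul, hve.2.2, hve.symm.2.2, h1, h1', h2, h2', h4.2.2,
      h4.symm.2.2, h5.2.2, h5.symm.2.2, h6, h6', P.alt.alt, zero_smul, one_smul, add_zero, zero_add,
      map_zero, smul_zero, sub_eq_add_neg, P.neg_eq]
  try abel

omit hG in
/-- Maps of the second factor occurring with the identity on the first act on the set. -/
lemma Nset.conj {N : W →ₗ[F] W} (hN : Nset P G N) {κ : W ≃ₗ[F] W}
    {h : (Fin m → W) ≃ₗ[F] (Fin m → W)} (hh : h ∈ G)
    (hκ : ∀ (u : Fin m → F) (w : W), h (ins u w) = ins u (κ w)) :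
    Nset P G (κ.toLinearMap ∘ₗ N ∘ₗ κ.symm.toLinearMap) := by
  obtain ⟨N', hN⟩ := hN
  have hev : ∀ u X, ev (eta P u) (h⁻¹ X) = κ.symm (ev (eta P u) X) := fun u X => by
    refine κ.injective ?_
    rw [LinearEquiv.apply_symm_apply]
    conv_rhs => rw [← self_inv_apply h X]
    exact (LinearMap.congr_fun
      (show ev (eta P u) ∘ₗ h.toLinearMap = κ.toLinearMap ∘ₗ ev (eta P u) from
        LinearMap.ext (Forms.ext_ins (F := F) fun v w => by
          simp only [LinearMap.comp_apply, LinearEquiv.coe_coe, hκ, P.ev_eta_ins, map_smul]))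
      (h⁻¹ X)).symm
  refine ⟨κ.toLinearMap ∘ₗ N' ∘ₗ κ.symm.toLinearMap, fun x y ho =>
    ((hN x y ho).conj hh).congr fun X => ?_⟩
  simp only [dq, LinearMap.comp_apply, LinearMap.add_apply, LinearEquiv.coe_coe, root_apply,
    map_add, hev, hκ]

/-- A root element of one line gives a member. -/
lemma nset_of_root {v : Fin m → F} (hv : v ≠ 0) {Y : W →ₗ[F] W}
    (hY : Mem G (root v (eta P v) Y)) : Nset P G Y := by
  have hall : ∀ z : Fin m → F, z ≠ 0 → Mem G (root z (eta P z) Y) := fun z hz => by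
    refine P.alt.elat_transitive (P := fun z => Mem G (root z (eta P z) Y)) hv hz hY ?_
    intro c s x hx
    obtain ⟨t, ht, htx⟩ := hG.trv c s
    have hti : ∀ X, t⁻¹ X = X + s • ins c (evs P c X) := fun X => t.injective (by
      rw [self_inv_apply, htx]
      simp only [LinearMap.smul_apply, root_apply, LinearMap.id_apply, map_add, map_smul,
        P.ev_eta_ins, P.alt.alt, zero_smul, smul_zero, map_zero, add_zero, evs]
      rw [add_assoc, P.add_self, add_zero])
    refine (hx.conj ht).congr fun X => ?_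
    simp only [LinearMap.comp_apply, LinearEquiv.coe_coe]
    rw [hti, htx]
    have hev : ev (eta P (x + (s * P.g c x) • c)) X =
        ev (eta P x) X + (s * P.g c x) • ev (eta P c) X := by
      show evs P _ X = evs P x X + _ • evs P c X
      rw [P.evs_add, P.evs_smul]
    simp only [evs, LinearMap.smul_apply, root_apply, LinearMap.id_apply, hev, ins_add, ins_smul,
      map_add, map_smul, P.ev_eta_ins, smul_smul, smul_add, P.g_symm x c]
    module
  obtain ⟨x, y, h⟩ := exists_orth P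
  have hxy : x + y ≠ 0 := fun h0 => h.2.1 (by
    rw [eq_neg_of_add_eq_zero_right h0]; exact neg_mem (Submodule.mem_span_singleton_self x))
  refine nset_of_mem hG h (N' := Y) ((((hall _ hxy).add (hall x h.1) fun X => ?_).add
    (hall y h.symm.1) fun X => ?_).congr fun X => ?_)
  · simp [root_apply, P.ev_eta_ins, h.2.2, h.symm.2.2, P.alt.alt, -ev_apply, -ins_apply]
  · simp [root_apply, P.ev_eta_ins, h.2.2, h.symm.2.2, P.alt.alt, -ev_apply, -ins_apply]
  · have e1 : evs P (x + y) X = evs P x X + evs P y X := P.evs_add x y X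
    simp only [dq, LinearMap.add_apply, root_apply, ins_add, map_add, evs] at e1 ⊢
    rw [e1]
    simp only [map_add]
    have a1 := P.add_self (ins x (Y (ev (eta P x) X)))
    have a2 := P.add_self (ins y (Y (ev (eta P y) X)))
    linear_combination (norm := abel) a1 + a2

end Cfsg.Agent.MaxSub.TensorPowSp.Even
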